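import Mathlib
import Cfsg.Agent.Lib.MultC.Model
import Cfsg.Agent.Lib.LieModel.L32.P.Data

/-! permutation model of degree 7: generators and a stabiliser chain (generated) -/

set_option autoImplicit false
set_option maxRecDepth 100000
set_option Elab.async false

namespace CfsgLib.MultC.L32

open CfsgLib.Comput CfsgLib.MultC

noncomputable def u1_0 : Net :=
  Net.cons 1 17
  (Net.cons 2 2
  (Net.cons 4 7
  (Net.cons 2 18
  (Net.cons 1 17
  (Net.nil)))))

noncomputable def u1_1 : Net :=
  Net.cons 1 5
  (Net.cons 2 2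
  (Net.cons 4 6
  (Net.cons 2 3
  (Net.cons 1 21
  (Net.nil)))))

noncomputable def u2_0 : Net :=
  Net.cons 2 2
  (Net.cons 4 2
  (Net.cons 2 18
  (Net.nil)))

noncomputable def u2_1 : Net :=
  Net.cons 1 4
  (Net.cons 4 4
  (Net.cons 1 20
  (Net.nil)))

noncomputable def V0 : List Net := [nth Net.nil CfsgLib.LieModel.L32.P.W 0, nth Net.nil CfsgLib.LieModel.L32.P.W 2]
noncomputable def U0 : List Net := (V0 ++ revL V0)
noncomputable def V1 : List Net := [u1_0, u1_1]
noncomputable def U1 : List Net := U0 ++ (V1 ++ revL V1)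
noncomputable def V2 : List Net := [u2_0, u2_1]
noncomputable def U2 : List Net := U1 ++ (V2 ++ revL V2)
noncomputable def U : List Net := U2

theorem v1 : wordsOK 7 3 U0 V1 [[0x2020101010404], [0x2020104040101]] = true := by decide +kernel
theorem v2 : wordsOK 7 3 U1 V2 [[0x605], [0x505080506]] = true := by decide +kernel

theorem realU {G Ω : Type*} [Group G] [MulAction G Ω] {pt : ℕ → Ω} (h : AllReal G 7 pt V0) :
    AllReal G 7 pt U := by
  have h0 : AllReal G 7 pt U0 := h.append h.rev
  have k1 : AllReal G 7 pt V1 := h0.words (by norm_num) v1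
  have h1 : AllReal G 7 pt U1 := h0.append (k1.append k1.rev)
  have k2 : AllReal G 7 pt V2 := h1.words (by norm_num) v2
  have h2 : AllReal G 7 pt U2 := h1.append (k2.append k2.rev)
  exact h2

end CfsgLib.MultC.L32
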