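import Mathlib
import Cfsg.Agent.Lib.MultC.Cover
import Cfsg.Agent.Lib.LieModel.L32.P.Cert
import Cfsg.Agent.Lib.MultC.Pkg
import Cfsg.Agent.Lib.LieModel.L32.P.Main

/-! a projective permutation representation (generated) -/

set_option autoImplicit false
set_option maxRecDepth 100000
set_option Elab.async false

namespace CfsgLib.MultC.L32.Cov

open CfsgLib.Comput CfsgLib.MultC

open CfsgLib.LieModel.L32.P

noncomputable def a0_0 : Net :=
  Net.cons 2 32
  (Net.cons 4 12
  (Net.cons 2 50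
  (Net.cons 1 65
  (Net.nil))))

noncomputable def r0 : Net :=
  Net.cons 8 27
  (Net.nil)

noncomputable def y0 : Net := catN r0 (a0_0.widen (ones 8 2))

noncomputable def a2_0 : Net :=
  Net.cons 1 64
  (Net.cons 2 32
  (Net.cons 4 8
  (Net.cons 2 3
  (Net.cons 1 81
  (Net.nil)))))

noncomputable def r2 : Net :=
  Net.cons 8 252
  (Net.nil)

noncomputable def y2 : Net := catN r2 (a2_0.widen (ones 8 2))

noncomputable def a4_0 : Net :=
  Net.cons 4 3
  (Net.cons 2 51
  (Net.cons 1 65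
  (Net.nil)))

noncomputable def r4 : Net :=
  Net.cons 8 43
  (Net.nil)

noncomputable def y4 : Net := catN r4 (a4_0.widen (ones 8 2))

noncomputable def a6_0 : Net :=
  Net.cons 1 64
  (Net.cons 4 15
  (Net.cons 2 17
  (Net.cons 1 64
  (Net.nil))))

noncomputable def r6 : Net :=
  Net.cons 8 240
  (Net.nil)

noncomputable def y6 : Net := catN r6 (a6_0.widen (ones 8 2))

noncomputable def a7_0 : Net :=
  Net.cons 2 51
  (Net.cons 1 80
  (Net.nil))

noncomputable def r7 : Net :=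
  Net.cons 8 172
  (Net.nil)

noncomputable def y7 : Net := catN r7 (a7_0.widen (ones 8 2))

noncomputable def c0 : Net := Net.cons 8 (Nat.shiftLeft (Nat.pred (Nat.shiftLeft 1 8)) 0) (Net.nil)

noncomputable def Y : List Net := [y0, y0.rev, y2, y2.rev, y4, y4.rev, y6, y7, c0]

def wit : List Wit := [([8, 7, 8, 7], [8, 8, 7, 7], 9)]

theorem Y_ok : allL (Net.ok 16) Y = true := by decide +kernel
theorem cen_0 : allRg (cenChk (stepT 16 4 Y) (idTab 16 4) [8]) 0 9 = true := by decide +kernel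
theorem e_l2_0 : eqAllH (stepT 16 4 Y) (idTab 16 4) (maskOf [8]) L2.eqns [0, 9, 9, 0, 0, 0, 9, 9] = true := by decide +kernel
theorem e_x2_0 : eqAllH (stepT 16 4 Y) (idTab 16 4) (maskOf [8]) X2.eqns [] = true := by decide +kernel
theorem e_l1_0 : eqAllH (stepT 16 4 Y) (idTab 16 4) (maskOf [8]) L1.eqns [9, 0, 9, 9, 0, 0, 0, 0] = true := by decide +kernel
theorem e_x1_0 : eqAllH (stepT 16 4 Y) (idTab 16 4) (maskOf [8]) X1.eqns [0] = true := by decide +kernel
theorem e_l0_0 : eqAllH (stepT 16 4 Y) (idTab 16 4) (maskOf [8]) L0.eqns [0, 0, 9, 0, 0, 0, 0, 9] = true := by decide +kernel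
theorem e_x0_0 : eqAllH (stepT 16 4 Y) (idTab 16 4) (maskOf [8]) X0.eqns [0, 0, 0] = true := by decide +kernel
theorem e_xd_0 : eqAllH (stepT 16 4 Y) (idTab 16 4) (maskOf [8]) XD.eqns [0, 0, 9, 0, 9, 0] = true := by decide +kernel
theorem e_mx_0 : eqAllH (stepT 16 4 Y) (idTab 16 4) (maskOf [8]) (L0.maxEqns MX) [0] = true := by decide +kernel
theorem e_nc_0 : eqAllH (stepT 16 4 Y) (idTab 16 4) (maskOf [8]) NC.eqns [9, 0, 0] = true := by decide +kernel
theorem wit_ok : witOK 0xff (stepT 7 3 W) (idTab 7 3) (stepT 16 4 Y) (idTab 16 4) wit = true := by decide +kernel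
theorem lb_ok : Nat.ble 2 (lbVal (stepW (stepN Y) (wit.map fun w => w.2.2)) 16 [(0, 2, [1])] []) = true := by
  decide +kernel

theorem wmY : WM (permG 16 Y) (stepT 16 4 Y) (idTab 16 4) := WM.perm Y_ok (by norm_num)

theorem cen : Cen (permG 16 Y) (maskOf [8]) :=
  cen_perm (K := 4) (T := 9) (by norm_num) Y_ok rfl (allRg_zero cen_0)

theorem low : Low (cl (permG 7 W) top) 2 := by
  have hm := exists_letters W_ok (inA_top E)
  let g : ℕ → cl (permG 7 W) top := fun m => ⟨_, hm m⟩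
  have PM : PModel (cl (permG 7 W) top) 7 (finPt 7) := (pModel_perm 7 (by norm_num)).subgroup _
  have hg : ∀ m, Acts 7 (finPt 7) (nth Net.nil W m) (g m) := acts_permG W_ok
  have E1 : Eqs g := eqs_of_WM (PM.wm hg (by norm_num))
  have E2 : Eqs (fun m => (g m, cen.quo m)) :=
    { l2 := E1.l2.prod (cen.allHold wmY e_l2_0)
      x2 := E1.x2.prod (cen.allHold wmY e_x2_0)
      l1 := E1.l1.prod (cen.allHold wmY e_l1_0)
      x1 := E1.x1.prod (cen.allHold wmY e_x1_0)
      l0 := E1.l0.prod (cen.allHold wmY e_l0_0)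
      x0 := E1.x0.prod (cen.allHold wmY e_x0_0)
      xd := E1.xd.prod (cen.allHold wmY e_xd_0)
      mx := E1.mx.prod (cen.allHold wmY e_mx_0)
      nc := E1.nc.prod (cen.allHold wmY e_nc_0) }
  let _ := fstAction (cl (permG 7 W) top) (cenA (permG 16 Y) (maskOf [8]) ⧸ Subgroup.center _) (Fin 7)
  obtain ⟨ρ, hρ⟩ := exists_hom_of_card (cl_lift hm)
    ((card (sm_prod _ (PM.sm hg)) E2).trans card_perm.symm)
  exact low_of_perm PM hg (by norm_num) (by norm_num) (by norm_num) Y_ok cen ρ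
    (fun m h => hρ _ (inA_top E2 m h)) wit_ok lb_ok

end CfsgLib.MultC.L32.Cov
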