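import Mathlib
import Cfsg.Agent.Lib.MultC.Pkg
import Cfsg.Agent.Lib.MultC.L32.Base
import Cfsg.Agent.Lib.LieModel.L32.P.Main

/-! the permutation group of the package -/

set_option autoImplicit false
set_option maxRecDepth 100000
set_option Elab.async false

namespace CfsgLib.MultC.L32

open CfsgLib.Comput CfsgLib.MultC

/-- the permutation group -/
noncomputable abbrev PG : Subgroup (Equiv.Perm (Fin 7)) := cl (permG 7 CfsgLib.LieModel.L32.P.W) CfsgLib.LieModel.L32.P.top

theorem model : PModel PG 7 (finPt 7) := (pModel_perm 7 (by norm_num)).subgroup _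

theorem real0 : AllReal PG 7 (finPt 7) V0 :=
  AllReal.cons (isReal_cl CfsgLib.LieModel.L32.P.W_ok 0 (by norm_num) (by decide)) (AllReal.cons (isReal_cl CfsgLib.LieModel.L32.P.W_ok 2 (by norm_num) (by decide)) (AllReal.nil))

theorem card : Nat.card PG = 168 := CfsgLib.LieModel.L32.P.card_perm

instance : Finite PG := Nat.finite_of_card_ne_zero (by rw [card]; norm_num)

end CfsgLib.MultC.L32
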