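import Mathlib
import Cfsg.Agent.Lib.MultC.L32.Base

/-! multiplier certificate for the prime 2 (generated) -/

set_option autoImplicit false
set_option maxRecDepth 100000
set_option Elab.async false

namespace CfsgLib.MultC.L32.P2

open CfsgLib.Comput CfsgLib.MultC

noncomputable def x0 : Net :=
  Net.cons 1 4
  (Net.cons 4 4
  (Net.cons 1 20
  (Net.nil)))

noncomputable def x1 : Net :=
  Net.cons 1 20
  (Net.cons 2 18
  (Net.cons 1 20
  (Net.nil)))

noncomputable def x2 : Net :=
  Net.cons 1 16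
  (Net.cons 2 2
  (Net.cons 4 2
  (Net.cons 2 18
  (Net.cons 1 16
  (Net.nil)))))

noncomputable def x3 : Net :=
  Net.cons 4 6
  (Net.nil)

noncomputable def x4 : Net :=
  Net.cons 1 4
  (Net.cons 4 4
  (Net.cons 2 18
  (Net.cons 1 5
  (Net.nil))))

noncomputable def X : List Net := [x0, x1, x2, x3, x4]

def D : Dat := ⟨1, 3, 1,
  0x4830,
  4, 0x862,
  0xb32,
  0x1100, 4⟩

def R0 : List (ℕ × ℕ × ℕ × List ℕ) := [(4, 2, 1, [66]),
  (2, 1, 0, [18, 67, 83]),
  (2, 0, 0, [18, 49, 81])]
def R1 : List (ℕ × List ℕ × List ℕ × List ℕ) := [(0, [1, 1], [], [33, 65, 114]),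
  (1, [2, 2], [], [3, 81, 130]),
  (1, [3, 3], [], [1, 49, 146])]

noncomputable def A : LA := ⟨12, [[17, 131], [113], [17]],
  [[81, 130, 146]], [2],
  Dat.sps R0 ++ (Dat.sps R1),
  [0x1203003,
  0,
  0x3331303,
  0x3300001,
  0x1103101,
  0x1103003],
  [33]⟩

def lv : LB := [(3, 1, [3, 1]), (1, 1, [2])]

theorem r0 : D.consAll 12 R0 = true := by decide +kernel
theorem r1 : D.fusAll 8 R1 = true := by decide +kernel
theorem xw : wordsOK 7 3 U X [[10], [0x505], [0xa09], [0x70a09], [0x104060a]] = true := by decide +kernel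
theorem c1_0 : allRg (D.rowChk (stepT 7 3 X) (idTab 7 3)) 0 3 = true := by decide +kernel
theorem c2_0 : allRg (D.fusChk (stepT 7 3 X) (idTab 7 3)) 0 4 = true := by decide +kernel
theorem c3 : lbOK 7 X 3 (2 ^ 3) lv = true := by decide +kernel
theorem c4 : D.basicOK A = true := by decide +kernel
theorem c5_0 : allRg (D.rowOK A) 0 3 = true := by decide +kernel

theorem pb {G : Type*} {Ω : Type*} [Group G] [MulAction G Ω] {pt : ℕ → Ω} (M : PModel G 7 pt)
    (h : AllReal G 7 pt V0) (hG : Nat.card G = 168) : PBound G 2 [2] :=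
  M.pBound (W := X) (k := 3) (D := D) (A := A) ((realU h).words (by norm_num) xw) (by norm_num) (by norm_num) rfl 1 rfl
    (by decide) rfl (by decide) (allRg_zero c1_0) (allRg_zero c2_0) c3 hG
    (by decide +kernel) ((D.allGood_cons 12 R0 (by norm_num) r0).append (D.allGood_fus 8 R1 (by norm_num) r1)) c4 (allRg_zero c5_0)

end CfsgLib.MultC.L32.P2
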